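import Mathlib
import Cfsg.Prelude.Def_LieRecognition

set_option autoImplicit false

/-! Basic consequences of the rank-one set-up `Cfsg.IsRankOneSetup`. -/

namespace Cfsg.Agent.Lib.Helper19

open MulAction
open scoped Pointwise

variable {G Ω : Type*} [Group G] [MulAction G Ω] {a : Ω} {t : G} {Q : Subgroup G}

theorem t_smul_t_smul (hS : Cfsg.IsRankOneSetup G Ω a t Q) (c : Ω) : t • t • c = c := by
  rw [smul_smul, hS.mul_self, one_smul]

theorem t_inv (hS : Cfsg.IsRankOneSetup G Ω a t Q) : t⁻¹ = t :=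
  inv_eq_of_mul_eq_one_left hS.mul_self

theorem ta_ne (hS : Cfsg.IsRankOneSetup G Ω a t Q) : t • a ≠ a := fun h => hS.not_mem h

theorem two_trans (hS : Cfsg.IsRankOneSetup G Ω a t Q) {b c d e : Ω} (h1 : b ≠ c) (h2 : d ≠ e) :
    ∃ g : G, g • b = d ∧ g • c = e :=
  (MulAction.is_two_pretransitive_iff.mp hS.two_transitive) h1 h2

theorem trans (hS : Cfsg.IsRankOneSetup G Ω a t Q) (b c : Ω) : ∃ g : G, g • b = c := by
  have := hS.two_transitive
  have : IsPretransitive G Ω := MulAction.isPretransitive_of_is_two_pretransitive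
  exact MulAction.exists_smul_eq G b c

theorem D_le_normalizer (hS : Cfsg.IsRankOneSetup G Ω a t Q) :
    stabilizer G a ≤ Subgroup.normalizer (Q : Set G) := by
  intro h hh
  rw [Subgroup.mem_normalizer_iff]
  intro x
  constructor
  · exact hS.conj_mem h hh x
  · intro hx
    have := hS.conj_mem h⁻¹ (inv_mem hh) _ hx
    simpa [mul_assoc] using this

/-- every element of `G_a` is `x * d` with `x ∈ Q`, `d ∈ D`. -/
theorem exists_mul_of_mem_stab (hS : Cfsg.IsRankOneSetup G Ω a t Q) {g : G} (hg : g ∈ stabilizer G a) :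
    ∃ x ∈ Q, ∃ d ∈ stabilizer G a ⊓ stabilizer G (t • a), g = x * d := by
  have h1 : (↑(Q ⊔ (stabilizer G a ⊓ stabilizer G (t • a))) : Set G)
      = (Q : Set G) * ((stabilizer G a ⊓ stabilizer G (t • a) : Subgroup G) : Set G) :=
    Subgroup.coe_mul_of_right_le_normalizer_left _ _ (inf_le_left.trans (D_le_normalizer hS))
  have h2 : g ∈ (↑(Q ⊔ (stabilizer G a ⊓ stabilizer G (t • a))) : Set G) := by
    rw [hS.sup_eq]; exact hg
  rw [h1] at h2
  obtain ⟨x, hx, d, hd, rfl⟩ := h2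
  exact ⟨x, hx, d, hd, rfl⟩

/-- `Q` is transitive on the points other than `a` -/
theorem exists_Q_smul_b (hS : Cfsg.IsRankOneSetup G Ω a t Q) {c : Ω} (hc : c ≠ a) :
    ∃ x ∈ Q, x • (t • a) = c := by
  obtain ⟨g, hg1, hg2⟩ := two_trans hS (ta_ne hS).symm hc.symm
  obtain ⟨x, hx, d, hd, rfl⟩ := exists_mul_of_mem_stab hS (show g ∈ stabilizer G a from hg1)
  refine ⟨x, hx, ?_⟩
  have : d • (t • a) = t • a := hd.2
  rw [mul_smul, this] at hg2
  exact hg2

theorem Q_smul_a (hS : Cfsg.IsRankOneSetup G Ω a t Q) {x : G} (hx : x ∈ Q) : x • a = a := hS.le hx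

/-- a non-identity element of `Q` fixes only `a`. -/
theorem eq_one_of_Q_fix (hS : Cfsg.IsRankOneSetup G Ω a t Q) {x : G} (hx : x ∈ Q) {c : Ω} (hc : c ≠ a)
    (hxc : x • c = c) : x = 1 := by
  obtain ⟨y, hy, rfl⟩ := exists_Q_smul_b hS hc
  have h1 : y⁻¹ * x * y ∈ Q := by
    have := hS.conj_mem y⁻¹ (hS.le (inv_mem hy)) x hx
    simpa using this
  have h2 : y⁻¹ * x * y ∈ stabilizer G (t • a) := by
    rw [mem_stabilizer_iff, mul_smul, mul_smul, hxc, inv_smul_smul]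
  have h3 : y⁻¹ * x * y ∈ Q ⊓ stabilizer G (t • a) := ⟨h1, h2⟩
  rw [hS.inf_eq_bot, Subgroup.mem_bot] at h3
  have : x = y * (y⁻¹ * x * y) * y⁻¹ := by group
  rw [this, h3]; group

theorem fix_eq_a_of_Q (hS : Cfsg.IsRankOneSetup G Ω a t Q) {x : G} (hx : x ∈ Q) (hx1 : x ≠ 1) {c : Ω}
    (hxc : x • c = c) : c = a := by
  by_contra hc
  exact hx1 (eq_one_of_Q_fix hS hx hc hxc)

theorem Q_smul_ne_a (hS : Cfsg.IsRankOneSetup G Ω a t Q) {x : G} (hx : x ∈ Q) {c : Ω} (hc : c ≠ a) :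
    x • c ≠ a := by
  intro h
  apply hc
  have : x • c = x • a := by rw [h, Q_smul_a hS hx]
  exact smul_left_cancel x this

/-- regularity of `Q` on the points other than `a`. -/
theorem existsUnique_Q_smul (hS : Cfsg.IsRankOneSetup G Ω a t Q) {b c : Ω} (hb : b ≠ a) (hc : c ≠ a) :
    ∃! x : Q, (x : G) • b = c := by
  obtain ⟨y, hy, rfl⟩ := exists_Q_smul_b hS hb
  obtain ⟨z, hz, rfl⟩ := exists_Q_smul_b hS hc
  refine ⟨⟨z * y⁻¹, mul_mem hz (inv_mem hy)⟩, ?_, ?_⟩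
  · simp [mul_smul]
  · rintro ⟨w, hw⟩ hw2
    simp only at hw2
    have h1 : (z * y⁻¹)⁻¹ * w ∈ Q := mul_mem (inv_mem (mul_mem hz (inv_mem hy))) hw
    have h2 : ((z * y⁻¹)⁻¹ * w) • (y • t • a) = y • t • a := by
      rw [mul_smul, hw2]; simp [mul_smul]
    have h3 := eq_one_of_Q_fix hS h1 hb h2
    ext
    simp only
    exact (inv_mul_eq_one.mp h3).symm

theorem Q_eq_of_smul_eq (hS : Cfsg.IsRankOneSetup G Ω a t Q) {x y : G} (hx : x ∈ Q) (hy : y ∈ Q) {b : Ω}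
    (hb : b ≠ a) (h : x • b = y • b) : x = y := by
  have h1 : y⁻¹ * x ∈ Q := mul_mem (inv_mem hy) hx
  have h2 : (y⁻¹ * x) • b = b := by rw [mul_smul, h, inv_smul_smul]
  exact (inv_mul_eq_one.mp (eq_one_of_Q_fix hS h1 hb h2)).symm

theorem exists_Q_smul (hS : Cfsg.IsRankOneSetup G Ω a t Q) {b c : Ω} (hb : b ≠ a) (hc : c ≠ a) :
    ∃ x ∈ Q, x • b = c := by
  obtain ⟨x, hx, -⟩ := existsUnique_Q_smul hS hb hc
  exact ⟨x, x.2, hx⟩

end Cfsg.Agent.Lib.Helper19
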