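import Mathlib
import Cfsg.Prelude.Def_LieRecognition
import Cfsg.Agent.Lib.Helper19.RankOne

set_option autoImplicit false

/-! Cardinalities, Sylow 2-subgroups and involutions in the rank-one set-up. -/

namespace Cfsg.Agent.Lib.Helper19

open MulAction
open scoped Pointwise

variable {G Ω : Type*} [Group G] [MulAction G Ω] {a : Ω} {t : G} {Q : Subgroup G}

/-- `Ω` is `a` together with the regular orbit of `Q`. -/
theorem card_Omega (hS : Cfsg.IsRankOneSetup G Ω a t Q) [Finite G] : Nat.card Ω = Nat.card Q + 1 := by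
  classical
  let f : Option Q → Ω := fun o => o.elim a (fun x => (x : G) • (t • a))
  have hf : Function.Bijective f := by
    constructor
    · intro x y hxy
      cases x with
      | none =>
        cases y with
        | none => rfl
        | some y => exact absurd hxy.symm (Q_smul_ne_a hS y.2 (ta_ne hS))
      | some x =>
        cases y with
        | none => exact absurd hxy (Q_smul_ne_a hS x.2 (ta_ne hS))
        | some y =>
          have := Q_eq_of_smul_eq hS x.2 y.2 (ta_ne hS) hxy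
          exact congrArg some (Subtype.ext this)
    · intro c
      by_cases hc : c = a
      · exact ⟨none, hc.symm⟩
      · obtain ⟨x, hx, hxc⟩ := exists_Q_smul_b hS hc
        exact ⟨some ⟨x, hx⟩, hxc⟩
  rw [← Nat.card_congr (Equiv.ofBijective f hf), Finite.card_option]

theorem card_stab (hS : Cfsg.IsRankOneSetup G Ω a t Q) :
    Nat.card (stabilizer G a) = Nat.card Q * Nat.card ↥(stabilizer G a ⊓ stabilizer G (t • a)) := by
  let f : Q × ↥(stabilizer G a ⊓ stabilizer G (t • a)) → stabilizer G a :=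
    fun p => ⟨(p.1 : G) * (p.2 : G), mul_mem (hS.le p.1.2) p.2.2.1⟩
  have hf : Function.Bijective f := by
    constructor
    · rintro ⟨⟨x, hx⟩, ⟨d, hd⟩⟩ ⟨⟨y, hy⟩, ⟨e, he⟩⟩ h
      have h1 : x * d = y * e := congrArg Subtype.val h
      have h2 : y⁻¹ * x = e * d⁻¹ := by
        have : y⁻¹ * (x * d) * d⁻¹ = y⁻¹ * (y * e) * d⁻¹ := by rw [h1]
        simpa [mul_assoc] using this
      have h3 : y⁻¹ * x ∈ Q ⊓ stabilizer G (t • a) := by
        refine Subgroup.mem_inf.mpr ⟨Q.mul_mem (Q.inv_mem hy) hx, ?_⟩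
        rw [h2]
        exact Subgroup.mul_mem _ (Subgroup.mem_inf.mp he).2 (Subgroup.inv_mem _ (Subgroup.mem_inf.mp hd).2)
      rw [hS.inf_eq_bot, Subgroup.mem_bot] at h3
      have hxy : x = y := (inv_mul_eq_one.mp h3).symm
      subst hxy
      have hde : d = e := mul_left_cancel h1
      subst hde
      rfl
    · rintro ⟨g, hg⟩
      obtain ⟨x, hx, d, hd, rfl⟩ := exists_mul_of_mem_stab hS hg
      exact ⟨(⟨x, hx⟩, ⟨d, hd⟩), rfl⟩
  rw [← Nat.card_congr (Equiv.ofBijective f hf), Nat.card_prod]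

theorem card_G (hS : Cfsg.IsRankOneSetup G Ω a t Q) [Finite G] :
    Nat.card G = Nat.card Q * Nat.card ↥(stabilizer G a ⊓ stabilizer G (t • a)) * (Nat.card Q + 1) := by
  have := hS.two_transitive
  have : IsPretransitive G Ω := MulAction.isPretransitive_of_is_two_pretransitive
  rw [← Subgroup.card_mul_index (stabilizer G a), card_stab hS, MulAction.index_stabilizer,
    MulAction.orbit_eq_univ, Set.ncard_univ, card_Omega hS]

theorem exists_sylow_le (hS : Cfsg.IsRankOneSetup G Ω a t Q) [Finite G] :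
    ∃ P : Sylow 2 G, (P : Subgroup G) ≤ Q := by
  have : Fact (Nat.Prime 2) := ⟨Nat.prime_two⟩
  obtain ⟨P₀⟩ : Nonempty (Sylow 2 Q) := inferInstance
  have h1 : Nat.card ((P₀ : Subgroup Q).map Q.subtype) = 2 ^ (Nat.card G).factorization 2 := by
    rw [Subgroup.card_map_of_injective Q.subtype_injective, P₀.card_eq_multiplicity, card_G hS]
    congr 1
    have hQ0 : Nat.card Q ≠ 0 := Nat.card_pos.ne'
    have hD0 : Nat.card ↥(stabilizer G a ⊓ stabilizer G (t • a)) ≠ 0 := Nat.card_pos.ne'
    rw [Nat.factorization_mul (mul_ne_zero hQ0 hD0) (Nat.succ_ne_zero _), Nat.factorization_mul hQ0 hD0]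
    have h2 : (Nat.card ↥(stabilizer G a ⊓ stabilizer G (t • a))).factorization 2 = 0 := by
      apply Nat.factorization_eq_zero_of_not_dvd
      have := hS.odd_card
      intro h
      exact (Nat.not_even_iff_odd.mpr this) (even_iff_two_dvd.mpr h)
    have h3 : (Nat.card Q + 1).factorization 2 = 0 := by
      apply Nat.factorization_eq_zero_of_not_dvd
      have := hS.even_card
      intro h
      have h4 : Odd (Nat.card Q + 1) := this.add_one
      exact (Nat.not_even_iff_odd.mpr h4) (even_iff_two_dvd.mpr h)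
    rw [Finsupp.add_apply, Finsupp.add_apply, h2, h3, add_zero, add_zero]
  refine ⟨Sylow.ofCard _ h1, ?_⟩
  intro x hx
  have : x ∈ (P₀ : Subgroup Q).map Q.subtype := hx
  obtain ⟨y, -, rfl⟩ := this
  exact y.2

/-- every involution is conjugate into `Q` -/
theorem exists_conj_mem_Q (hS : Cfsg.IsRankOneSetup G Ω a t Q) [Finite G] {u : G} (hu : u * u = 1) :
    ∃ g : G, g * u * g⁻¹ ∈ Q := by
  have : Fact (Nat.Prime 2) := ⟨Nat.prime_two⟩
  obtain ⟨P, hP⟩ := exists_sylow_le hS
  have h1 : IsPGroup 2 (Subgroup.zpowers u) := by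
    rw [IsPGroup.iff_card]
    rw [Nat.card_zpowers]
    have : orderOf u ∣ 2 := orderOf_dvd_of_pow_eq_one (by rw [pow_two, hu])
    rcases (Nat.dvd_prime Nat.prime_two).mp this with h | h
    · exact ⟨0, by simp [h]⟩
    · exact ⟨1, by simp [h]⟩
  obtain ⟨P', hP'⟩ := h1.exists_le_sylow
  obtain ⟨g, hg⟩ := MulAction.exists_smul_eq G P' P
  refine ⟨g, hP ?_⟩
  rw [← hg, Sylow.coe_subgroup_smul, Subgroup.mem_pointwise_smul_iff_inv_smul_mem]
  have : u ∈ (P' : Subgroup G) := hP' (Subgroup.mem_zpowers u)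
  simpa [MulAut.smul_def, mul_assoc] using this

/-- every involution fixes exactly one point -/
theorem invol_existsUnique_fix (hS : Cfsg.IsRankOneSetup G Ω a t Q) [Finite G] {u : G} (hu1 : u ≠ 1)
    (hu : u * u = 1) : ∃! c : Ω, u • c = c := by
  obtain ⟨g, hg⟩ := exists_conj_mem_Q hS hu
  have hne : g * u * g⁻¹ ≠ 1 := by
    intro h
    apply hu1
    have : u = g⁻¹ * (g * u * g⁻¹) * g := by group
    rw [this, h]; group
  refine ⟨g⁻¹ • a, ?_, ?_⟩
  · have := Q_smul_a hS hg
    have h2 : g⁻¹ • ((g * u * g⁻¹) • a) = g⁻¹ • a := by rw [this]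
    simpa [mul_smul] using h2
  · intro c hc
    have : (g * u * g⁻¹) • (g • c) = g • c := by
      simp [mul_smul, hc]
    have := fix_eq_a_of_Q hS hg hne this
    rw [← this, inv_smul_smul]

/-- an involution of `G_a` fixes only `a`. -/
theorem invol_fix_eq (hS : Cfsg.IsRankOneSetup G Ω a t Q) [Finite G] {u : G} (hu1 : u ≠ 1)
    (hu : u * u = 1) {c d : Ω} (hc : u • c = c) (hd : u • d = d) : c = d :=
  (invol_existsUnique_fix hS hu1 hu).unique hc hd

end Cfsg.Agent.Lib.Helper19
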