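import Mathlib
import Cfsg.Prelude.Def_LieRecognition
import Cfsg.Agent.Lib.Helper19.RankOneCard
import Cfsg.Agent.Lib.Helper19.Dihedral

set_option autoImplicit false

/-! Involutions in the rank-one set-up. -/

namespace Cfsg.Agent.Lib.Helper19

open MulAction
open scoped Pointwise

variable {G Ω : Type*} [Group G] [Finite G] [MulAction G Ω] {a : Ω} {t : G} {Q : Subgroup G}

/-- two involutions with different fixed points have a product of odd order -/
theorem odd_orderOf_mul_of_fix_ne (hS : Cfsg.IsRankOneSetup G Ω a t Q) {s u : G} {c : Ω}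
    (hs1 : s ≠ 1) (hs : s * s = 1) (hu : u * u = 1) (hsc : s • c = c) (huc : u • c ≠ c) :
    Odd (orderOf (s * u)) := by
  by_contra hodd
  rw [Nat.not_odd_iff_even] at hodd
  obtain ⟨z, hz1, hz, hzs, hzu⟩ := exists_central_invol_of_even hs hu hodd
  have h1 : s • (z • c) = z • c := by
    rw [smul_smul, ← hzs, mul_smul, hsc]
  have h2 : z • c = c := invol_fix_eq hS hs1 hs h1 hsc
  have h3 : z • (u • c) = u • c := by
    rw [smul_smul, hzu, mul_smul, h2]
  exact huc (invol_fix_eq hS hz1 hz h3 h2)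

/-- two involutions with different fixed points are swapped by an involution of the group they generate -/
theorem exists_swap_of_fix_ne (hS : Cfsg.IsRankOneSetup G Ω a t Q) {s u : G} {c : Ω}
    (hs1 : s ≠ 1) (hs : s * s = 1) (hu : u * u = 1) (hsc : s • c = c) (huc : u • c ≠ c) :
    ∃ w : G, w * w = 1 ∧ w * s * w = u ∧ w * u * w = s ∧ w ∈ Subgroup.closure {s, u} :=
  exists_invol_swap_of_odd hs hu (odd_orderOf_mul_of_fix_ne hS hs1 hs hu hsc huc)

theorem exists_ne (hS : Cfsg.IsRankOneSetup G Ω a t Q) (c : Ω) : ∃ e : Ω, e ≠ c := by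
  by_cases h : c = a
  · exact ⟨t • a, by rw [h]; exact ta_ne hS⟩
  · exact ⟨a, fun h' => h h'.symm⟩

theorem invol_conj (hS : Cfsg.IsRankOneSetup G Ω a t Q) {u v : G}
    (hu1 : u ≠ 1) (hu : u * u = 1) (hv1 : v ≠ 1) (hv : v * v = 1) : ∃ g : G, g * u * g⁻¹ = v := by
  obtain ⟨c, hc, -⟩ := invol_existsUnique_fix hS hu1 hu
  by_cases hvc : v • c = c
  · obtain ⟨e, he⟩ := exists_ne hS c
    obtain ⟨g, hg⟩ := trans hS c e
    have hw1 : g * u * g⁻¹ ≠ 1 := by
      intro h
      apply hu1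
      have : u = g⁻¹ * (g * u * g⁻¹) * g := by group
      rw [this, h]; group
    have hw : (g * u * g⁻¹) * (g * u * g⁻¹) = 1 := by
      calc (g * u * g⁻¹) * (g * u * g⁻¹) = g * (u * u) * g⁻¹ := by group
        _ = 1 := by rw [hu]; group
    have hwe : (g * u * g⁻¹) • e = e := by
      rw [← hg]; simp [mul_smul, hc]
    have hwc : (g * u * g⁻¹) • c ≠ c := by
      intro h
      exact he (invol_fix_eq hS hw1 hw hwe h)
    obtain ⟨w, hw2, h1, h2, -⟩ := exists_swap_of_fix_ne hS hv1 hv hw hvc hwc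
    refine ⟨w * g, ?_⟩
    rw [← h2, mul_inv_rev, invol_inv hw2]
    simp only [mul_assoc]
  · obtain ⟨w, hw2, h1, h2, -⟩ := exists_swap_of_fix_ne hS hu1 hu hv hc hvc
    exact ⟨w, by rw [invol_inv hw2]; exact h1⟩

end Cfsg.Agent.Lib.Helper19
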