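import Mathlib
import Cfsg.Prelude.Def_LieRecognition
import Cfsg.Agent.Lib.Helper19.RankOneInvol

set_option autoImplicit false

/-! The set `K` of elements of the two-point stabiliser inverted by `t`, and the structure equation. -/

namespace Cfsg.Agent.Lib.Helper19

open MulAction
open scoped Pointwise

variable {G Ω : Type*} [Group G] [Finite G] [MulAction G Ω] {a : Ω} {t : G} {Q : Subgroup G}

omit [Finite G] in
theorem eq_one_of_sq_of_odd_card {H : Subgroup G} (hH : Odd (Nat.card H)) {d : G} (hd : d ∈ H)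
    (hd2 : d * d = 1) : d = 1 := by
  have hord : orderOf d ∣ 2 := orderOf_dvd_of_pow_eq_one (by rw [pow_two, hd2])
  have hord2 : orderOf d ∣ Nat.card H := by
    have := orderOf_dvd_natCard (⟨d, hd⟩ : H)
    rwa [Subgroup.orderOf_mk] at this
  have h1 : orderOf d ∣ 1 := by
    have := Nat.dvd_gcd hord2 hord
    rwa [Nat.Coprime.gcd_eq_one (Nat.coprime_two_right.mpr hH)] at this
  exact orderOf_eq_one_iff.mp (Nat.dvd_one.mp h1)

omit [Finite G] [MulAction G Ω] in
theorem conj_invol_ne_one {g u : G} (hu1 : u ≠ 1) : g * u * g⁻¹ ≠ 1 := by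
  intro h
  apply hu1
  have : u = g⁻¹ * (g * u * g⁻¹) * g := by group
  rw [this, h]; group

omit [Finite G] [MulAction G Ω] in
theorem conj_invol_sq {g u : G} (hu : u * u = 1) : (g * u * g⁻¹) * (g * u * g⁻¹) = 1 := by
  calc (g * u * g⁻¹) * (g * u * g⁻¹) = g * (u * u) * g⁻¹ := by group
    _ = 1 := by rw [hu]; group

omit [Finite G] in
theorem mem_invertedBy_iff (hS : Cfsg.IsRankOneSetup G Ω a t Q) {H : Subgroup G} {k : G} :
    k ∈ Cfsg.invertedBy H t ↔ k ∈ H ∧ t * k * t = k⁻¹ := by
  unfold Cfsg.invertedBy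
  rw [Set.mem_ofPred_eq, t_inv hS]

omit [Finite G] [MulAction G Ω] in
theorem mem_involutionsIn_iff {S : Set G} {s : G} :
    s ∈ Cfsg.involutionsIn S ↔ s ∈ S ∧ s ≠ 1 ∧ s * s = 1 := Iff.rfl

/-- there is an involution in `Q` -/
theorem exists_invol_Q (hS : Cfsg.IsRankOneSetup G Ω a t Q) : ∃ s ∈ Q, s ≠ 1 ∧ s * s = 1 := by
  have : Fact (Nat.Prime 2) := ⟨Nat.prime_two⟩
  obtain ⟨x, hx⟩ := exists_prime_orderOf_dvd_card' (G := Q) 2 (even_iff_two_dvd.mp hS.even_card)
  refine ⟨x, x.2, ?_, ?_⟩
  · intro h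
    have : x = 1 := Subtype.ext h
    rw [this, orderOf_one] at hx
    omega
  · have := pow_orderOf_eq_one x
    rw [hx, pow_two] at this
    exact congrArg Subtype.val this

/-- Any `w` with `w * w = 1` conjugating an involution fixing `t • a` to an involution fixing `a` swaps the two
points. -/
theorem swap_points (hS : Cfsg.IsRankOneSetup G Ω a t Q) {s₁ s' w : G}
    (hs'1 : s' ≠ 1) (hs' : s' * s' = 1) (hs'a : s' • a = a)
    (hs₁b : s₁ • (t • a) = t • a) (hw : w * w = 1) (hws : w * s₁ * w = s') :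
    w • (t • a) = a ∧ w • a = t • a := by
  have h1 : s' • (w • (t • a)) = w • (t • a) := by
    rw [← hws, smul_smul, mul_assoc, hw, mul_one, mul_smul, hs₁b]
  have h2 : w • (t • a) = a := invol_fix_eq hS hs'1 hs' h1 hs'a
  refine ⟨h2, ?_⟩
  calc w • a = w • (w • (t • a)) := by rw [h2]
    _ = t • a := by rw [smul_smul, hw, one_smul]

/-- For involutions `s`, `s'` of `G_a` there is exactly one `k ∈ K` with `k⁻¹ s k = s'`. -/
theorem existsUnique_K_conj (hS : Cfsg.IsRankOneSetup G Ω a t Q) {s s' : G}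
    (hs : s ∈ Cfsg.involutionsIn (stabilizer G a : Set G))
    (hs' : s' ∈ Cfsg.involutionsIn (stabilizer G a : Set G)) :
    ∃! k : G, k ∈ Cfsg.invertedBy (stabilizer G a ⊓ stabilizer G (t • a)) t ∧ k⁻¹ * s * k = s' := by
  obtain ⟨hsa, hs1, hs2⟩ := hs
  obtain ⟨hs'a, hs'1, hs'2⟩ := hs'
  have hsa : s • a = a := hsa
  have hs'a : s' • a = a := hs'a
  have htinv := t_inv hS
  have ht2 := hS.mul_self
  -- s₁ = t s t
  have hs₁1 : t * s * t ≠ 1 := by have := conj_invol_ne_one (g := t) hs1; rwa [htinv] at this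
  have hs₁2 : (t * s * t) * (t * s * t) = 1 := by
    have := conj_invol_sq (g := t) hs2; rwa [htinv] at this
  have hs₁b : (t * s * t) • (t • a) = t • a := by
    rw [mul_smul, mul_smul, t_smul_t_smul hS, hsa]
  have hs'b : s' • (t • a) ≠ t • a := fun h => ta_ne hS (invol_fix_eq hS hs'1 hs'2 h hs'a)
  obtain ⟨w, hw2, hw1, hw3, hwcl⟩ := exists_swap_of_fix_ne hS hs₁1 hs₁2 hs'2 hs₁b hs'b
  obtain ⟨hwb, hwa⟩ := swap_points hS hs'1 hs'2 hs'a hs₁b hw2 hw1
  have hwinv := invol_inv hw2
  refine ⟨t * w, ⟨(mem_invertedBy_iff hS).mpr ⟨Subgroup.mem_inf.mpr ⟨?_, ?_⟩, ?_⟩, ?_⟩, ?_⟩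
  · rw [mem_stabilizer_iff, mul_smul, hwa, t_smul_t_smul hS]
  · rw [mem_stabilizer_iff, mul_smul, hwb]
  · rw [mul_inv_rev, hwinv, htinv, ← mul_assoc, ht2, one_mul]
  · rw [mul_inv_rev, hwinv, htinv, ← hw1]; simp only [mul_assoc]
  · rintro k ⟨hk, hks⟩
    obtain ⟨hkD, hkt⟩ := (mem_invertedBy_iff hS).mp hk
    -- u' = t k
    have hu'2 : (t * k) * (t * k) = 1 := by
      calc (t * k) * (t * k) = (t * k * t) * k := by simp only [mul_assoc]
        _ = 1 := by rw [hkt, inv_mul_cancel]
    have hu's : (t * k) * (t * s * t) * (t * k) = s' := by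
      calc (t * k) * (t * s * t) * (t * k) = (t * k * t) * s * ((t * t) * k) := by simp only [mul_assoc]
        _ = s' := by rw [hkt, ht2, one_mul, hks]
    have hu's' : (t * k) * s' * (t * k) = t * s * t := by
      rw [← hu's]
      calc (t * k) * ((t * k) * (t * s * t) * (t * k)) * (t * k)
          = ((t * k) * (t * k)) * (t * s * t) * ((t * k) * (t * k)) := by simp only [mul_assoc]
        _ = t * s * t := by rw [hu'2, one_mul, mul_one]
    generalize t * s * t = s₁ at *
    generalize hu' : t * k = u' at *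
    -- d = u' w
    have hdD : u' * w ∈ stabilizer G a ⊓ stabilizer G (t • a) := by
      have hkD' := Subgroup.mem_inf.mp hkD
      have hka : k • a = a := hkD'.1
      have hkb : k • (t • a) = t • a := hkD'.2
      refine Subgroup.mem_inf.mpr ⟨?_, ?_⟩
      · rw [mem_stabilizer_iff, mul_smul, hwa, ← hu', mul_smul, hkb, t_smul_t_smul hS]
      · rw [mem_stabilizer_iff, mul_smul, hwb, ← hu', mul_smul, hka]
    have hu'inv := invol_inv hu'2
    have hds₁ : s₁ * (u' * w) = (u' * w) * s₁ := by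
      -- (u' w) s₁ (w u') = s₁
      have h1 : (u' * w) * s₁ * (w * u') = s₁ := by
        calc (u' * w) * s₁ * (w * u') = u' * (w * s₁ * w) * u' := by simp only [mul_assoc]
          _ = s₁ := by rw [hw1, hu's']
      calc s₁ * (u' * w) = ((u' * w) * s₁ * (w * u')) * (u' * w) := by rw [h1]
        _ = (u' * w) * s₁ * (w * (u' * u') * w) := by simp only [mul_assoc]
        _ = (u' * w) * s₁ := by rw [hu'2, mul_one, hw2, mul_one]
    have hds' : s' * (u' * w) = (u' * w) * s' := by
      have h1 : (u' * w) * s' * (w * u') = s' := by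
        calc (u' * w) * s' * (w * u') = u' * (w * s' * w) * u' := by simp only [mul_assoc]
          _ = s' := by rw [hw3, hu's]
      calc s' * (u' * w) = ((u' * w) * s' * (w * u')) * (u' * w) := by rw [h1]
        _ = (u' * w) * s' * (w * (u' * u') * w) := by simp only [mul_assoc]
        _ = (u' * w) * s' := by rw [hu'2, mul_one, hw2, mul_one]
    have hcl : Subgroup.closure {s₁, s'} ≤ Subgroup.centralizer {u' * w} := by
      rw [Subgroup.closure_le]
      intro x hx
      rw [SetLike.mem_coe, Subgroup.mem_centralizer_iff]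
      intro h hh
      rw [Set.mem_singleton_iff.mp hh]
      rcases hx with rfl | hx
      · exact hds₁.symm
      · rw [Set.mem_singleton_iff.mp hx]; exact hds'.symm
    have hwd : (u' * w) * w = w * (u' * w) := by
      have := hcl hwcl
      rw [Subgroup.mem_centralizer_iff] at this
      exact this _ rfl
    have hd2 : (u' * w) * (u' * w) = 1 := by
      calc (u' * w) * (u' * w) = u' * (w * (u' * w)) := by simp only [mul_assoc]
        _ = u' * ((u' * w) * w) := by rw [hwd]
        _ = (u' * u') * (w * w) := by simp only [mul_assoc]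
        _ = 1 := by rw [hu'2, hw2, one_mul]
    have hd1 := eq_one_of_sq_of_odd_card hS.odd_card hdD hd2
    have hu'w : u' = w := by
      calc u' = (u' * w) * w := by rw [mul_assoc, hw2, mul_one]
        _ = w := by rw [hd1, one_mul]
    calc k = t * (t * k) := by rw [← mul_assoc, ht2, one_mul]
      _ = t * w := by rw [hu', hu'w]

end Cfsg.Agent.Lib.Helper19
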