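import Mathlib
import Cfsg.Prelude.Def_LieRecognition
import Cfsg.Agent.Lib.Helper19.RankOneK

set_option autoImplicit false

/-! Centralisers of subsets of the two-point stabiliser fixing at least three points. -/

namespace Cfsg.Agent.Lib.Helper19

open MulAction
open scoped Pointwise

variable {G Ω : Type*} [Group G] [MulAction G Ω] {a : Ω} {t : G} {Q : Subgroup G}

/-- an involution of `G_a` lies in `Q` -/
theorem invol_stab_mem_Q [Finite G] (hS : Cfsg.IsRankOneSetup G Ω a t Q) {s : G} (hsa : s • a = a)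
    (hs : s * s = 1) : s ∈ Q := by
  by_cases hs1 : s = 1
  · rw [hs1]; exact one_mem _
  obtain ⟨g, hg⟩ := exists_conj_mem_Q hS hs
  have h1 : (g * s * g⁻¹) • (g • a) = g • a := by simp [mul_smul, hsa]
  have h2 : g • a = a := fix_eq_a_of_Q hS hg (conj_invol_ne_one hs1) h1
  have h3 : g⁻¹ ∈ stabilizer G a := inv_mem (show g ∈ stabilizer G a from h2)
  have h4 := hS.conj_mem g⁻¹ h3 _ hg
  have h5 : g⁻¹ * (g * s * g⁻¹) * g⁻¹⁻¹ = s := by group
  rwa [h5] at h4

theorem mem_centralizer_smul_fix {X : Set G} {g : G} (hg : g ∈ Subgroup.centralizer X) {c : Ω}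
    (hc : ∀ x ∈ X, x • c = c) : ∀ x ∈ X, x • (g • c) = g • c := by
  intro x hx
  rw [smul_smul, (Subgroup.mem_centralizer_iff.mp hg) x hx, mul_smul, hc x hx]

/-- Lemma A: `C_Q(X)` is transitive on the fixed points of `X` other than `a`. -/
theorem exists_centralizer_Q_smul (hS : Cfsg.IsRankOneSetup G Ω a t Q) {X : Set G}
    (hX : X ⊆ (stabilizer G a : Set G)) {c c' : Ω} (hca : c ≠ a) (hc'a : c' ≠ a)
    (hc : ∀ x ∈ X, x • c = c) (hc' : ∀ x ∈ X, x • c' = c') :
    ∃ r ∈ Q, r ∈ Subgroup.centralizer X ∧ r • c = c' := by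
  obtain ⟨r, hr, hrc⟩ := exists_Q_smul hS hca hc'a
  refine ⟨r, hr, ?_, hrc⟩
  rw [Subgroup.mem_centralizer_iff]
  intro x hx
  have h1 : x * r * x⁻¹ ∈ Q := hS.conj_mem x (hX hx) r hr
  have hxinv : x⁻¹ • c = c := by rw [inv_smul_eq_iff, hc x hx]
  have h2 : (x * r * x⁻¹) • c = r • c := by
    rw [mul_smul, mul_smul, hxinv, hrc, hc' x hx]
  have h3 := Q_eq_of_smul_eq hS h1 hr hca h2
  calc x * r = (x * r * x⁻¹) * x := by group
    _ = r * x := by rw [h3]

/-- Lemma B: the same at the point `t • a`. -/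
theorem exists_centralizer_smul_b (hS : Cfsg.IsRankOneSetup G Ω a t Q) {X : Set G}
    (hX : X ⊆ (stabilizer G (t • a) : Set G)) {c c' : Ω} (hcb : c ≠ t • a) (hc'b : c' ≠ t • a)
    (hc : ∀ x ∈ X, x • c = c) (hc' : ∀ x ∈ X, x • c' = c') :
    ∃ r ∈ Subgroup.centralizer X, r • (t • a) = t • a ∧ r • c = c' := by
  have ht2 := hS.mul_self
  have hX' : (fun x => t * x * t) '' X ⊆ (stabilizer G a : Set G) := by
    rintro _ ⟨x, hx, rfl⟩
    have : x • (t • a) = t • a := hX hx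
    change (t * x * t) • a = a
    rw [mul_smul, mul_smul, this, t_smul_t_smul hS]
  have h1 : t • c ≠ a := by
    intro h; apply hcb; rw [← h, t_smul_t_smul hS]
  have h2 : t • c' ≠ a := by
    intro h; apply hc'b; rw [← h, t_smul_t_smul hS]
  have h3 : ∀ y ∈ (fun x => t * x * t) '' X, y • (t • c) = t • c := by
    rintro _ ⟨x, hx, rfl⟩
    rw [mul_smul, mul_smul, t_smul_t_smul hS, hc x hx]
  have h4 : ∀ y ∈ (fun x => t * x * t) '' X, y • (t • c') = t • c' := by
    rintro _ ⟨x, hx, rfl⟩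
    rw [mul_smul, mul_smul, t_smul_t_smul hS, hc' x hx]
  obtain ⟨r, hr, hrX, hrc⟩ := exists_centralizer_Q_smul hS hX' h1 h2 h3 h4
  refine ⟨t * r * t, ?_, ?_, ?_⟩
  · rw [Subgroup.mem_centralizer_iff] at hrX ⊢
    intro x hx
    have := hrX (t * x * t) ⟨x, hx, rfl⟩
    calc x * (t * r * t) = t * ((t * x * t) * r) * t := by
          simp only [← mul_assoc]; rw [ht2, one_mul]
      _ = t * (r * (t * x * t)) * t := by rw [this]
      _ = t * r * t * x * (t * t) := by simp only [mul_assoc]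
      _ = t * r * t * x := by rw [ht2, mul_one]
  · rw [mul_smul, mul_smul, t_smul_t_smul hS, Q_smul_a hS hr]
  · rw [mul_smul, mul_smul, hrc, t_smul_t_smul hS]

/-- `C_G(X)` is transitive on the fixed points of `X` if there are at least three of them. -/
theorem exists_centralizer_smul_eq_a (hS : Cfsg.IsRankOneSetup G Ω a t Q) {X : Set G}
    (hX : X ⊆ ((stabilizer G a ⊓ stabilizer G (t • a) : Subgroup G) : Set G))
    (h3 : ∃ b c d : Ω, b ≠ c ∧ b ≠ d ∧ c ≠ d ∧ ∀ x ∈ X, x • b = b ∧ x • c = c ∧ x • d = d)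
    {c : Ω} (hc : ∀ x ∈ X, x • c = c) : ∃ g ∈ Subgroup.centralizer X, g • c = a := by
  have hXa : X ⊆ (stabilizer G a : Set G) := fun x hx => (Subgroup.mem_inf.mp (hX hx)).1
  have hXb : X ⊆ (stabilizer G (t • a) : Set G) := fun x hx => (Subgroup.mem_inf.mp (hX hx)).2
  have hfa : ∀ x ∈ X, x • a = a := fun x hx => hXa hx
  have hfb : ∀ x ∈ X, x • (t • a) = t • a := fun x hx => hXb hx
  -- a third fixed point
  obtain ⟨e, hea, heb, he⟩ : ∃ e : Ω, e ≠ a ∧ e ≠ t • a ∧ ∀ x ∈ X, x • e = e := by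
    obtain ⟨b, c, d, hbc, hbd, hcd, h⟩ := h3
    by_cases h1 : b = a ∨ b = t • a
    · by_cases h2 : c = a ∨ c = t • a
      · refine ⟨d, ?_, ?_, fun x hx => (h x hx).2.2⟩
        · rintro rfl
          rcases h1 with h1 | h1 <;> rcases h2 with h2 | h2
          · exact hbd h1
          · exact hbd h1
          · exact hcd h2
          · exact hbc (h1.trans h2.symm)
        · rintro rfl
          rcases h1 with h1 | h1 <;> rcases h2 with h2 | h2
          · exact hbc (h1.trans h2.symm)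
          · exact hcd h2
          · exact hbd h1
          · exact hbd h1
      · push Not at h2
        exact ⟨c, h2.1, h2.2, fun x hx => (h x hx).2.1⟩
    · push Not at h1
      exact ⟨b, h1.1, h1.2, fun x hx => (h x hx).1⟩
  by_cases hcb : c = t • a
  · obtain ⟨r, -, hrX, hrc⟩ := exists_centralizer_Q_smul hS hXa (ta_ne hS) hea hfb he
    obtain ⟨r', hr'X, -, hr'c⟩ := exists_centralizer_smul_b hS hXb heb (ta_ne hS).symm he hfa
    exact ⟨r' * r, mul_mem hr'X hrX, by rw [mul_smul, hcb, hrc, hr'c]⟩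
  · obtain ⟨r', hr'X, -, hr'c⟩ := exists_centralizer_smul_b hS hXb hcb (ta_ne hS).symm hc hfa
    exact ⟨r', hr'X, hr'c⟩

/-- `C_G(X)` maps any pair of distinct fixed points of `X` to `(a, t • a)`. -/
theorem exists_centralizer_smul_pair (hS : Cfsg.IsRankOneSetup G Ω a t Q) {X : Set G}
    (hX : X ⊆ ((stabilizer G a ⊓ stabilizer G (t • a) : Subgroup G) : Set G))
    (h3 : ∃ b c d : Ω, b ≠ c ∧ b ≠ d ∧ c ≠ d ∧ ∀ x ∈ X, x • b = b ∧ x • c = c ∧ x • d = d)
    {c d : Ω} (hcd : c ≠ d) (hc : ∀ x ∈ X, x • c = c) (hd : ∀ x ∈ X, x • d = d) :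
    ∃ g ∈ Subgroup.centralizer X, g • c = a ∧ g • d = t • a := by
  have hXa : X ⊆ (stabilizer G a : Set G) := fun x hx => (Subgroup.mem_inf.mp (hX hx)).1
  have hfb : ∀ x ∈ X, x • (t • a) = t • a := fun x hx => (Subgroup.mem_inf.mp (hX hx)).2
  obtain ⟨g, hg, hgc⟩ := exists_centralizer_smul_eq_a hS hX h3 hc
  have h1 : g • d ≠ a := by
    intro h
    apply hcd
    rw [← hgc] at h
    exact (smul_left_cancel g h).symm
  obtain ⟨r, hr, hrX, hrd⟩ := exists_centralizer_Q_smul hS hXa h1 (ta_ne hS)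
    (mem_centralizer_smul_fix hg hd) hfb
  exact ⟨r * g, mul_mem hrX hg, by rw [mul_smul, hgc, Q_smul_a hS hr], by rw [mul_smul, hrd]⟩

/-- there is an involution in `C_G(X)` swapping `a` and `t • a`. -/
theorem exists_centralizer_invol_swap (hS : Cfsg.IsRankOneSetup G Ω a t Q) {X : Set G}
    (hX : X ⊆ ((stabilizer G a ⊓ stabilizer G (t • a) : Subgroup G) : Set G))
    (h3 : ∃ b c d : Ω, b ≠ c ∧ b ≠ d ∧ c ≠ d ∧ ∀ x ∈ X, x • b = b ∧ x • c = c ∧ x • d = d) :
    ∃ u ∈ Subgroup.centralizer X, u * u = 1 ∧ u • a = t • a ∧ u • (t • a) = a := by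
  have hfa : ∀ x ∈ X, x • a = a := fun x hx => (Subgroup.mem_inf.mp (hX hx)).1
  have hfb : ∀ x ∈ X, x • (t • a) = t • a := fun x hx => (Subgroup.mem_inf.mp (hX hx)).2
  obtain ⟨g, hg, hgb, hga⟩ := exists_centralizer_smul_pair hS hX h3 (ta_ne hS) hfb hfa
  have hg2 : g * g ∈ stabilizer G a ⊓ stabilizer G (t • a) := by
    refine Subgroup.mem_inf.mpr ⟨?_, ?_⟩
    · rw [mem_stabilizer_iff, mul_smul, hga, hgb]
    · rw [mem_stabilizer_iff, mul_smul, hgb, hga]
  obtain ⟨j, hj⟩ := hS.odd_card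
  have hpow : (g * g) ^ (2 * j + 1) = 1 := by
    have := pow_card_eq_one' (G := ↥(stabilizer G a ⊓ stabilizer G (t • a))) (x := ⟨g * g, hg2⟩)
    rw [hj] at this
    exact congrArg Subtype.val this
  have hgg : ∀ m : ℕ, (g * g) ^ m • a = a ∧ (g * g) ^ m • (t • a) = t • a := by
    intro m
    have := pow_mem hg2 m
    exact Subgroup.mem_inf.mp this
  have hu : g ^ (2 * j + 1) = (g * g) ^ j * g := by
    rw [pow_succ, pow_mul, pow_two]
  refine ⟨g ^ (2 * j + 1), pow_mem hg _, ?_, ?_, ?_⟩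
  · rw [← pow_add, ← two_mul, pow_mul, pow_two, hpow]
  · rw [hu, mul_smul, hga, (hgg j).2]
  · rw [hu, mul_smul, hgb, (hgg j).1]

end Cfsg.Agent.Lib.Helper19
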