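import Mathlib
import Cfsg.Prelude.Def_LieRecognition
import Cfsg.Agent.Lib.Helper19.RankOneFix
import Cfsg.Agent.S1125

set_option autoImplicit false

/-! Elements of `K` act fixed-point-freely on `Q`; involutions of `G_a` are central in `Q`. -/

namespace Cfsg.Agent.Lib.Helper19

open MulAction
open scoped Pointwise

variable {G Ω : Type*} [Group G] [Finite G] [MulAction G Ω] {a : Ω} {t : G} {Q : Subgroup G}

/-- a non-identity element of `K` centralises no non-identity element of `Q` (no faithfulness needed) -/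
theorem K_fpf (hS : Cfsg.IsRankOneSetup G Ω a t Q) {x : G}
    (hx : x ∈ Cfsg.invertedBy (MulAction.stabilizer G a ⊓ MulAction.stabilizer G (t • a)) t) (hx1 : x ≠ 1) :
    Q ⊓ Subgroup.centralizer {x} = ⊥ := by
  have ht2 := hS.mul_self
  obtain ⟨hxD, hxt⟩ := (mem_invertedBy_iff hS).mp hx
  have hxa : x • a = a := (Subgroup.mem_inf.mp hxD).1
  have hxb : x • (t • a) = t • a := (Subgroup.mem_inf.mp hxD).2
  rw [Subgroup.eq_bot_iff_forall]
  intro q hq
  by_contra hq1
  obtain ⟨hqQ, hqx⟩ := Subgroup.mem_inf.mp hq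
  have hqx : x * q = q * x := (Subgroup.mem_centralizer_iff.mp hqx) x rfl
  have hX : ({x} : Set G) ⊆ ((MulAction.stabilizer G a ⊓ MulAction.stabilizer G (t • a) : Subgroup G) : Set G) := by
    intro y hy; rw [Set.mem_singleton_iff.mp hy]; exact hxD
  have h3 : ∃ b c d : Ω, b ≠ c ∧ b ≠ d ∧ c ≠ d ∧ ∀ y ∈ ({x} : Set G), y • b = b ∧ y • c = c ∧ y • d = d := by
    refine ⟨a, t • a, q • (t • a), (ta_ne hS).symm, (Q_smul_ne_a hS hqQ (ta_ne hS)).symm, ?_, ?_⟩
    · intro h
      exact hq1 (eq_one_of_Q_fix hS hqQ (ta_ne hS) h.symm)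
    · intro y hy
      rw [Set.mem_singleton_iff.mp hy]
      refine ⟨hxa, hxb, ?_⟩
      rw [smul_smul, hqx, mul_smul, hxb]
  have heven := (Cfsg.Agent.S1125.result hS {x} hX h3).2.1
  have : Fact (Nat.Prime 2) := ⟨Nat.prime_two⟩
  obtain ⟨s, hs⟩ := exists_prime_orderOf_dvd_card' (G := ↥(Subgroup.centralizer {x} ⊓ Q)) 2
    (even_iff_two_dvd.mp heven)
  have hs1 : (s : G) ≠ 1 := by
    intro h
    have : s = 1 := Subtype.ext h
    rw [this, orderOf_one] at hs
    omega
  have hs2 : (s : G) * (s : G) = 1 := by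
    have := pow_orderOf_eq_one s
    rw [hs, pow_two] at this
    exact congrArg Subtype.val this
  obtain ⟨hsx, hsQ⟩ := Subgroup.mem_inf.mp s.2
  have hsx : x * (s : G) = (s : G) * x := (Subgroup.mem_centralizer_iff.mp hsx) x rfl
  generalize (s : G) = s' at hs1 hs2 hsx hsQ
  have hodd : Odd (orderOf (s' * t)) :=
    odd_orderOf_mul_of_fix_ne hS hs1 hs2 ht2 (Q_smul_a hS hsQ) (ta_ne hS)
  -- y = s' t inverts x
  have hy : (s' * t) * x = x⁻¹ * (s' * t) := by
    have h1 : t * x = x⁻¹ * t := by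
      calc t * x = (t * x * t) * t := by rw [mul_assoc, mul_assoc, ht2, mul_one]
        _ = x⁻¹ * t := by rw [hxt]
    have h2 : s' * x⁻¹ = x⁻¹ * s' := by
      calc s' * x⁻¹ = x⁻¹ * (x * s') * x⁻¹ := by group
        _ = x⁻¹ * (s' * x) * x⁻¹ := by rw [hsx]
        _ = x⁻¹ * s' := by group
    calc (s' * t) * x = s' * (t * x) := by rw [mul_assoc]
      _ = (s' * x⁻¹) * t := by rw [h1, mul_assoc]
      _ = x⁻¹ * (s' * t) := by rw [h2, mul_assoc]
  generalize s' * t = y at hodd hy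
  have hy' : y * x⁻¹ = x * y := by
    calc y * x⁻¹ = x * (x⁻¹ * y) * x⁻¹ := by group
      _ = x * (y * x) * x⁻¹ := by rw [hy]
      _ = x * y := by group
  have hyy : Commute (y * y) x := by
    change y * y * x = x * (y * y)
    calc y * y * x = y * (y * x) := by rw [mul_assoc]
      _ = (y * x⁻¹) * y := by rw [hy, mul_assoc]
      _ = x * (y * y) := by rw [hy', mul_assoc]
  obtain ⟨m, hm⟩ := hodd
  have hpow : (y * y) ^ m * y = 1 := by
    have := pow_orderOf_eq_one y
    rwa [hm, pow_succ, pow_mul, pow_two] at this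
  have hyc : Commute y x := by
    have h1 : y = ((y * y) ^ m)⁻¹ := by
      rw [eq_inv_iff_mul_eq_one, (Commute.pow_right (Commute.mul_right (Commute.refl y) (Commute.refl y)) m).eq]
      exact hpow
    rw [h1]
    exact (hyy.pow_left m).inv_left
  have hxx : x = x⁻¹ := by
    have : y * x = x * y := hyc
    rw [hy] at this
    exact (mul_right_cancel this).symm
  have hx2 : x * x = 1 := by
    nth_rewrite 1 [hxx]; exact inv_mul_cancel x
  exact hx1 (eq_one_of_sq_of_odd_card hS.odd_card hxD hx2)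

/-- involutions of `G_a` are central in `Q` -/
theorem invol_central (hS : Cfsg.IsRankOneSetup G Ω a t Q) {s q : G}
    (hs : s ∈ Cfsg.involutionsIn (stabilizer G a : Set G)) (hq : q ∈ Q) : s * q = q * s := by
  have hs' : q * s * q⁻¹ ∈ Cfsg.involutionsIn (stabilizer G a : Set G) :=
    ⟨mul_mem (mul_mem (hS.le hq) hs.1) (inv_mem (hS.le hq)), conj_invol_ne_one hs.2.1, conj_invol_sq hs.2.2⟩
  obtain ⟨k, ⟨hk, hks⟩, -⟩ := existsUnique_K_conj hS hs hs'
  by_cases hk1 : k = 1
  · rw [hk1] at hks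
    simp only [inv_one, one_mul, mul_one] at hks
    calc s * q = (q * s * q⁻¹) * q := by rw [← hks]
      _ = q * s := by group
  exfalso
  have hfpf := K_fpf hS hk hk1
  have hkD := ((mem_invertedBy_iff hS).mp hk).1
  have hka : k ∈ stabilizer G a := (Subgroup.mem_inf.mp hkD).1
  -- the map g ↦ g k g⁻¹ k⁻¹ on Q
  let φ : Q → Q := fun g => ⟨(g : G) * (k * (g : G)⁻¹ * k⁻¹), mul_mem g.2 (hS.conj_mem k hka _ (inv_mem g.2))⟩
  have hφ : Function.Injective φ := by
    intro g h hgh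
    have h1 : (g : G) * (k * (g : G)⁻¹ * k⁻¹) = (h : G) * (k * (h : G)⁻¹ * k⁻¹) := congrArg Subtype.val hgh
    have h2 : ((h : G)⁻¹ * (g : G)) ∈ Q ⊓ Subgroup.centralizer {k} := by
      refine Subgroup.mem_inf.mpr ⟨mul_mem (inv_mem h.2) g.2, ?_⟩
      rw [Subgroup.mem_centralizer_iff]
      intro y hy
      rw [Set.mem_singleton_iff.mp hy]
      calc k * ((h : G)⁻¹ * (g : G)) = (h : G)⁻¹ * ((h : G) * (k * (h : G)⁻¹ * k⁻¹)) * k * (g : G) := by group
        _ = (h : G)⁻¹ * ((g : G) * (k * (g : G)⁻¹ * k⁻¹)) * k * (g : G) := by rw [h1]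
        _ = (h : G)⁻¹ * (g : G) * k := by group
    rw [hfpf, Subgroup.mem_bot] at h2
    exact Subtype.ext (inv_mul_eq_one.mp h2).symm
  have hφs : Function.Surjective φ := Finite.injective_iff_surjective.mp hφ
  obtain ⟨g, hg⟩ := hφs ⟨k * q * k⁻¹, hS.conj_mem k hka q hq⟩
  have hg' : (g : G) * (k * (g : G)⁻¹ * k⁻¹) = k * q * k⁻¹ := congrArg Subtype.val hg
  have hgk : (g : G) * k * (g : G)⁻¹ = k * q := by
    calc (g : G) * k * (g : G)⁻¹ = ((g : G) * (k * (g : G)⁻¹ * k⁻¹)) * k := by group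
      _ = k * q := by rw [hg']; group
  have hcomm : (k * q) * s = s * (k * q) := by
    calc (k * q) * s = k * (q * s * q⁻¹) * q := by group
      _ = k * (k⁻¹ * s * k) * q := by rw [hks]
      _ = s * (k * q) := by group
  have hmem : (g : G)⁻¹ * s * (g : G) ∈ Q ⊓ Subgroup.centralizer {k} := by
    refine Subgroup.mem_inf.mpr ⟨?_, ?_⟩
    · have hsQ : s ∈ Q := invol_stab_mem_Q hS hs.1 hs.2.2
      exact mul_mem (mul_mem (inv_mem g.2) hsQ) g.2
    · rw [Subgroup.mem_centralizer_iff]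
      intro y hy
      rw [Set.mem_singleton_iff.mp hy]
      calc k * ((g : G)⁻¹ * s * (g : G)) = (g : G)⁻¹ * (((g : G) * k * (g : G)⁻¹) * s) * (g : G) := by group
        _ = (g : G)⁻¹ * (s * ((g : G) * k * (g : G)⁻¹)) * (g : G) := by rw [hgk, hcomm]
        _ = (g : G)⁻¹ * s * (g : G) * k := by group
  rw [hfpf, Subgroup.mem_bot] at hmem
  have := conj_invol_ne_one (g := (g : G)⁻¹) hs.2.1
  rw [inv_inv] at this
  exact this hmem

/-- two involutions with the same fixed point commute -/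
theorem invol_commute_of_fix (hS : Cfsg.IsRankOneSetup G Ω a t Q) {u v : G} {c : Ω}
    (hu1 : u ≠ 1) (hu : u * u = 1) (hv : v * v = 1) (huc : u • c = c) (hvc : v • c = c) :
    u * v = v * u := by
  obtain ⟨g, hg⟩ := trans hS c a
  have h1 : (g * u * g⁻¹) • a = a := by rw [← hg]; simp [mul_smul, huc]
  have h2 : (g * v * g⁻¹) • a = a := by rw [← hg]; simp [mul_smul, hvc]
  have h3 := invol_central hS (s := g * u * g⁻¹) (q := g * v * g⁻¹)
    ⟨h1, conj_invol_ne_one hu1, conj_invol_sq hu⟩ (invol_stab_mem_Q hS h2 (conj_invol_sq hv))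
  calc u * v = g⁻¹ * ((g * u * g⁻¹) * (g * v * g⁻¹)) * g := by group
    _ = g⁻¹ * ((g * v * g⁻¹) * (g * u * g⁻¹)) * g := by rw [h3]
    _ = v * u := by group

end Cfsg.Agent.Lib.Helper19
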