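import Mathlib
import Cfsg.Agent.Lib.Helper19.Sharp3

set_option autoImplicit false

namespace Cfsg.Agent.Lib.Helper19

open MulAction

section Sharp3b

variable {G X : Type*} [Group G] [MulAction G X]

/-- Two elements of order 3 in a two-point stabiliser of a sharply 3-transitive group are
conjugate by an element fixing a prescribed third point and preserving the pair. -/
theorem sharp3_order3_conj (h3 : IsMultiplyPretransitive G X 3)
    (hsharp : ∀ x : Fin 3 ↪ X, stabilizer G x = ⊥) {a b c : X} (hab : a ≠ b) (hac : a ≠ c)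
    (hbc : b ≠ c) {x y : G} (hxa : x • a = a) (hxb : x • b = b) (hx1 : x ≠ 1) (hx3 : x ^ 3 = 1)
    (hya : y • a = a) (hyb : y • b = b) (hy1 : y ≠ 1) (hy3 : y ^ 3 = 1) :
    ∃ g : G, g • c = c ∧ g * x * g⁻¹ = y ∧ (g • a = a ∨ g • a = b) := by
  have hdist : ∀ z : G, z • a = a → z • b = b → z ≠ 1 → z ^ 3 = 1 →
      c ≠ z • c ∧ c ≠ z • z • c ∧ z • c ≠ z • z • c ∧ z • z • z • c = c := by
    intro z hza hzb hz1 hz3
    have h1 : z • c ≠ c := fun h => hz1 (sharp3_fix hsharp hab hac hbc hza hzb h)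
    refine ⟨h1.symm, ?_, ?_, ?_⟩
    · intro h
      have h2 : z * z = 1 := by
        apply sharp3_fix hsharp hab hac hbc
        · rw [mul_smul, hza, hza]
        · rw [mul_smul, hzb, hzb]
        · rw [mul_smul, ← h]
      apply hz1
      calc z = z ^ 3 * (z * z)⁻¹ := by group
        _ = 1 := by rw [hz3, h2]; simp
    · intro h
      exact h1 (smul_left_cancel _ h).symm
    · rw [← mul_smul, ← mul_smul]
      have : z * z * z = z ^ 3 := by rw [pow_succ, pow_two]
      rw [this, hz3, one_smul]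
  obtain ⟨hx1', hx2', hx3', hx4'⟩ := hdist x hxa hxb hx1 hx3
  obtain ⟨hy1', hy2', hy3', hy4'⟩ := hdist y hya hyb hy1 hy3
  obtain ⟨g, hg1, hg2, hg3⟩ := sharp3_trans h3 c (x • c) (x • x • c) c (y • c) (y • y • c)
    hx1' hx2' hx3' hy1' hy2' hy3'
  have hconj : g * x * g⁻¹ = y := by
    have h1 : y⁻¹ * (g * x * g⁻¹) = 1 := by
      apply sharp3_fix hsharp hy1' hy2' hy3'
      · rw [mul_smul, mul_smul, mul_smul, inv_smul_eq_iff.mpr hg1.symm, hg2, inv_smul_smul]
      · rw [mul_smul, mul_smul, mul_smul, inv_smul_eq_iff.mpr hg2.symm, hg3, inv_smul_smul]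
      · rw [mul_smul, mul_smul, mul_smul, inv_smul_eq_iff.mpr hg3.symm, hx4', hg1,
          inv_smul_eq_iff, hy4']
    exact (inv_mul_eq_one.mp h1).symm
  refine ⟨g, hg1, hconj, ?_⟩
  by_contra hcon
  push Not at hcon
  have hfix : y • (g • a) = g • a := by
    rw [← hconj, mul_smul, mul_smul, inv_smul_smul, hxa]
  exact hy1 (sharp3_fix hsharp hab hcon.1.symm hcon.2.symm hya hyb hfix)

theorem sharp3_order3_eq (h3 : IsMultiplyPretransitive G X 3)
    (hsharp : ∀ x : Fin 3 ↪ X, stabilizer G x = ⊥) {a b c : X} (hab : a ≠ b) (hac : a ≠ c)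
    (hbc : b ≠ c) {x y : G} (hxa : x • a = a) (hxb : x • b = b) (hx1 : x ≠ 1) (hx3 : x ^ 3 = 1)
    (hya : y • a = a) (hyb : y • b = b) (hy1 : y ≠ 1) (hy3 : y ^ 3 = 1) :
    y = x ∨ y = x⁻¹ := by
  obtain ⟨g₁, hg₁c, hg₁, hg₁a⟩ := sharp3_order3_conj h3 hsharp hab hac hbc hxa hxb hx1 hx3
    hya hyb hy1 hy3
  obtain ⟨g₂, hg₂c, hg₂, hg₂a⟩ := sharp3_order3_conj h3 hsharp hab hac hbc hxa hxb hx1 hx3
    (y := x⁻¹) (by rw [inv_smul_eq_iff, hxa]) (by rw [inv_smul_eq_iff, hxb])
    (by simpa using hx1) (by rw [inv_pow, hx3, inv_one])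
  -- an element fixing `c`, conjugating `x` to `z` (with fixed points a, b) and fixing `a` is `1`
  have hb_of : ∀ (g z : G), z ≠ 1 → z • a = a → z • b = b → g * x * g⁻¹ = z →
      (g • b = a ∨ g • b = b) := by
    intro g z hz1 hza hzb hconj
    by_contra hcon
    push Not at hcon
    have hfix : z • (g • b) = g • b := by
      rw [← hconj, mul_smul, mul_smul, inv_smul_smul, hxb]
    exact hz1 (sharp3_fix hsharp hab hcon.1.symm hcon.2.symm hza hzb hfix)
  have hone : ∀ (g z : G), z ≠ 1 → z • a = a → z • b = b → g * x * g⁻¹ = z → g • c = c →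
      g • a = a → g = 1 := by
    intro g z hz1 hza hzb hconj hgc hga
    rcases hb_of g z hz1 hza hzb hconj with h | h
    · exact absurd (smul_left_cancel g (h.trans hga.symm)) hab.symm
    · exact sharp3_fix hsharp hab hac hbc hga h hgc
  have hswap : ∀ (g z : G), z ≠ 1 → z • a = a → z • b = b → g * x * g⁻¹ = z →
      g • a = b → g • b = a := by
    intro g z hz1 hza hzb hconj hga
    rcases hb_of g z hz1 hza hzb hconj with h | h
    · exact h
    · exact absurd (smul_left_cancel g (h.trans hga.symm)) hab.symm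
  have hxi1 : x⁻¹ ≠ 1 := by simpa using hx1
  have hxia : x⁻¹ • a = a := by rw [inv_smul_eq_iff, hxa]
  have hxib : x⁻¹ • b = b := by rw [inv_smul_eq_iff, hxb]
  rcases hg₁a with h1 | h1
  · left
    have := hone g₁ y hy1 hya hyb hg₁ hg₁c h1
    rw [this] at hg₁
    simpa using hg₁.symm
  · right
    rcases hg₂a with h2 | h2
    · exfalso
      have := hone g₂ x⁻¹ hxi1 hxia hxib hg₂ hg₂c h2
      rw [this] at hg₂
      have h4 : x = x⁻¹ := by simpa using hg₂
      have h5 : x * x = 1 := by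
        nth_rewrite 1 [h4]
        group
      apply hx1
      calc x = x ^ 3 * (x * x)⁻¹ := by group
        _ = 1 := by rw [hx3, h5]; simp
    · have h1b := hswap g₁ y hy1 hya hyb hg₁ h1
      have h2b := hswap g₂ x⁻¹ hxi1 hxia hxib hg₂ h2
      have : g₁⁻¹ * g₂ = 1 := by
        apply sharp3_fix hsharp hab hac hbc
        · rw [mul_smul, h2, inv_smul_eq_iff, h1]
        · rw [mul_smul, h2b, inv_smul_eq_iff, h1b]
        · rw [mul_smul, hg₂c, inv_smul_eq_iff, hg₁c]
      have h12 : g₁ = g₂ := inv_mul_eq_one.mp this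
      rw [← hg₁, ← hg₂, h12]

end Sharp3b

end Cfsg.Agent.Lib.Helper19
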