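import Mathlib
import Cfsg.Agent.Lib.Helper19.S3Build
import Cfsg.Agent.Lib.Helper19.ZasHalf
import Cfsg.Agent.Lib.Helper19.ZassCoord2
import Cfsg.Agent.S0741

set_option autoImplicit false

/-! Simple Zassenhaus groups with two point stabilisers of even order. -/

namespace Cfsg.Agent.Lib.Helper19

open MulAction Cfsg Cfsg.Agent.Lib Cfsg.Agent.Lib.Helper6.Zas

/-- an abelian group acting freely on an abelian group that is not too large is cyclic -/
theorem isCyclic_of_free {G : Type*} [Group G] [Finite G] (T D : Subgroup G)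
    (hTc : ∀ s ∈ T, ∀ t ∈ T, s * t = t * s)
    (hDc : ∀ c ∈ D, ∀ d ∈ D, c * d = d * c)
    (hDT : ∀ d ∈ D, ∀ t ∈ T, d * t * d⁻¹ ∈ T)
    (hfree : ∀ d ∈ D, ∀ t ∈ T, t ≠ 1 → d * t * d⁻¹ = t → d = 1)
    (hcard : Nat.card T < 2 * (Nat.card D + 1))
    (e : G) (heT : e ∈ T) (he1 : e ≠ 1) : IsCyclic D := by
  obtain ⟨F, _, _, τ, hτT, -, hτi, -, hτ1, hD, -⟩ :=
    exists_field_coord2 T D hTc hDc hDT hfree hcard e heT he1
  choose! k hk0 hk using hD
  have hk1 : ∀ d ∈ D, d * e * d⁻¹ = τ (k d) := by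
    intro d hd
    rw [← hτ1, hk d hd, mul_one]
  let f : D →* F :=
    { toFun := fun d => k d
      map_one' := by
        apply hτi
        show τ (k (1 : G)) = τ 1
        rw [← hk1 _ D.one_mem, hτ1]
        simp
      map_mul' := by
        intro x y
        apply hτi
        show τ (k ((x : G) * y)) = _
        rw [← hk1 _ (D.mul_mem x.2 y.2), ← hk x x.2, ← hk1 y y.2]
        group }
  apply isCyclic_of_injective_ringHom f
  intro x y hxy
  have h1 : k (x : G) = k (y : G) := hxy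
  have h2 : (x : G) * e * (x : G)⁻¹ = y * e * (y : G)⁻¹ := by
    rw [hk1 x x.2, hk1 y y.2, h1]
  have h3 := hfree ((y : G)⁻¹ * x) (D.mul_mem (D.inv_mem y.2) x.2) e heT he1 (by
    have : (y : G)⁻¹ * x * e * ((y : G)⁻¹ * x)⁻¹ = (y : G)⁻¹ * (x * e * (x : G)⁻¹) * y := by group
    rw [this, h2]; group)
  exact Subtype.ext (inv_mul_eq_one.mp h3).symm

variable {G Ω : Type*} [Group G] [MulAction G Ω] {a b : Ω}

theorem two_mul_card_le_of_simple [Finite G] [Fintype Ω] (hZ : Cfsg.IsZassenhausGroup G Ω)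
    [IsSimpleGroup G] (hab : a ≠ b)
    (heven : Even (Nat.card ↥(stabilizer G a ⊓ stabilizer G b))) :
    2 * Nat.card ↥(stabilizer G a ⊓ stabilizer G b) ≤ Fintype.card Ω - 2 := by
  classical
  have hb := base_of_zassenhaus hZ
  obtain ⟨K, z⟩ := exists_zdata_of_zassenhaus hZ hab
  have h741 := Cfsg.Agent.S0741.result hZ hab heven
  obtain ⟨c, hca, hcb⟩ := exists_third hZ a b
  have h3 : 3 ≤ Fintype.card Ω := by
    have : ({a, b, c} : Finset Ω).card = 3 := by
      rw [Finset.card_insert_of_notMem, Finset.card_insert_of_notMem, Finset.card_singleton]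
      · simp [hcb.symm]
      · simp [hab, hca.symm]
    rw [← this]
    exact Finset.card_le_univ _
  obtain ⟨h, hh⟩ : ∃ h, Fintype.card Ω = h + 1 := ⟨Fintype.card Ω - 1, by omega⟩
  have hdvd := hb.card_stab2_dvd hab hh
  set d := Nat.card ↥(stabilizer G a ⊓ stabilizer G b) with hd
  have hd0 : 0 < d := Nat.card_pos
  obtain ⟨r, hr⟩ := heven
  obtain ⟨q, hq⟩ := hdvd
  have hq1 : 1 ≤ q := by
    rcases Nat.eq_zero_or_pos q with h0 | h0
    · rw [h0, mul_zero] at hq; omega
    · exact h0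
  have hq2 : q ≤ 2 := by
    by_contra hlt
    push Not at hlt
    have : d * 3 ≤ d * q := Nat.mul_le_mul_left _ hlt
    omega
  have hq' : q = 1 ∨ q = 2 := by omega
  rcases hq' with rfl | rfl
  · exfalso
    have hcard : Fintype.card Ω = d + 2 := by omega
    have Htrans := Htrans_of_card hb hab hca hcb hcard
    obtain ⟨t, htH, ht1, ht2⟩ := exists_invol_of_even (stabilizer G a ⊓ stabilizer G b) ⟨r, hr⟩
    obtain ⟨u, -, huc, hua, hub⟩ := hb.exists_invol_fix_swap hab ⟨r, hr⟩ c hca hcb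
    have sd : S3Data G Ω a b c K t u :=
      ⟨z, hca, hcb, Htrans, htH.1, htH.2, ht1, ht2, hua, hub, huc⟩
    obtain ⟨lam, h₁, hh₁, hne⟩ := sd.exists_linear (by
      rw [Nat.card_eq_fintype_card, hcard, hr]
      exact ⟨r + 1, by omega⟩)
    rcases IsSimpleGroup.eq_bot_or_eq_top_of_normal lam.ker inferInstance with hk | hk
    · have hinj := (MonoidHom.ker_eq_bot_iff lam).1 hk
      have hcomm : ∀ x y : G, x * y = y * x := by
        intro x y
        apply hinj
        rw [map_mul, map_mul, mul_comm]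
      apply ht1
      apply hb.faithful
      intro e
      by_cases hea : e = a
      · rw [hea]; exact htH.1
      · obtain ⟨g, hga, -⟩ := hb.two hab hea
        rw [← hga, ← mul_smul, hcomm, mul_smul, mem_stabilizer_iff.mp htH.1]
    · apply hne
      have : h₁ ∈ lam.ker := by rw [hk]; exact Subgroup.mem_top _
      exact MonoidHom.mem_ker.1 this
  · omega

/-- structure of the two point stabiliser when `2 d = n - 1`, `d` even -/
theorem cyclic_inverted_of_half {K : Subgroup G} (z : ZData G Ω a b K) [Finite G] [Fintype Ω]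
    (heven : Even (Nat.card ↥(stabilizer G a ⊓ stabilizer G b)))
    (hd : 2 * Nat.card ↥(stabilizer G a ⊓ stabilizer G b) ≤ Fintype.card Ω - 2) :
    IsCyclic ↥(stabilizer G a ⊓ stabilizer G b) ∧
      ∀ u : G, u • a = b → u • b = a → u * u = 1 ∧
        ∀ h ∈ stabilizer G a ⊓ stabilizer G b, u * h * u⁻¹ = h⁻¹ := by
  classical
  have hb := z.base
  have hab := z.hab
  obtain ⟨hcard, hsw⟩ := swap_invol_of_half hb hab heven hd
  set H : Subgroup G := MulAction.stabilizer G a ⊓ MulAction.stabilizer G b with hH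
  have hK := z.card_K
  rw [Nat.card_eq_fintype_card] at hK
  obtain ⟨j, hjH, hj1, hj2⟩ := exists_invol_of_even H heven
  have hinv : ∀ u : G, u • a = b → u • b = a → u * u = 1 ∧ ∀ h ∈ H, u * h * u⁻¹ = h⁻¹ := by
    intro u hua hub
    have huu := hsw u hua hub
    have huinv : u⁻¹ = u := inv_eq_of_mul_eq_one_left huu
    refine ⟨huu, ?_⟩
    intro d hd
    have h1 := hsw (u * d) (by rw [mul_smul, mem_stabilizer_iff.mp hd.1, hua])
      (by rw [mul_smul, mem_stabilizer_iff.mp hd.2, hub])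
    rw [huinv, eq_inv_iff_mul_eq_one]
    calc u * d * u * d = u * d * (u * d) := by group
      _ = 1 := h1
  refine ⟨?_, hinv⟩
  obtain ⟨u, hua, hub⟩ := hb.two hab hab.symm
  have hud := (hinv u hua hub).2
  have hHc : ∀ c ∈ H, ∀ d ∈ H, c * d = d * c := by
    intro x hx y hy
    have h1 := hud _ (H.mul_mem (H.inv_mem hy) (H.inv_mem hx))
    have h2 : u * (y⁻¹ * x⁻¹) * u⁻¹ = (u * y⁻¹ * u⁻¹) * (u * x⁻¹ * u⁻¹) := by group
    rw [h2, hud _ (H.inv_mem hy), hud _ (H.inv_mem hx)] at h1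
    simpa using h1.symm
  have hcK : Nat.card K = 2 * Nat.card H + 1 := by
    have : 0 < Nat.card H := Nat.card_pos
    omega
  obtain ⟨e, heK, he1⟩ : ∃ e ∈ K, e ≠ 1 := by
    have h1 : 1 < Nat.card K := by
      have : 0 < Nat.card H := Nat.card_pos
      omega
    rw [Finite.one_lt_card_iff_nontrivial] at h1
    obtain ⟨x, hx⟩ := exists_ne (1 : K)
    exact ⟨x, x.2, fun h => hx (Subtype.ext h)⟩
  exact isCyclic_of_free K H (z.K_comm j hjH hj1 hj2) hHc (fun d hd t ht => z.Knorm d hd.1 t ht)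
    (fun d hd t ht ht1 hc => z.free d hd t ht ht1 hc) (by omega) e heK he1

end Cfsg.Agent.Lib.Helper19
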